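/-
S5815: the pieces `U3`, `HZ`, `SPL`, `WD`.
-/
import Cfsg.Agent.H26.O7B
import Cfsg.Agent.H11.O7a

set_option autoImplicit false
set_option linter.unusedSectionVars false
set_option linter.unusedVariables false

open Module QuadraticMap H12 Cfsg MatrixGroups Subgroup H26.O7 H11.O7
namespace H10.O7
universe u v

section
variable {K : Type u} [Field K] {M : Type u} [AddCommGroup M] [Module K M] [FiniteDimensional K M] {G : Type v} [Group G]

theorem ker_comp (f g : End K M) : finrank K (LinearMap.ker (f * g)) ≤ finrank K (LinearMap.ker f) + finrank K (LinearMap.ker g) := by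
  have a := (g.domRestrict (LinearMap.ker (f * g))).finrank_range_add_finrank_ker
  have b : LinearMap.range (g.domRestrict (LinearMap.ker (f * g))) ≤ LinearMap.ker f := by rintro _ ⟨⟨v, h⟩, rfl⟩; exact h
  have c : (LinearMap.ker (g.domRestrict (LinearMap.ker (f * g)))).map (Submodule.subtype _) ≤ LinearMap.ker g := by
    rintro _ ⟨⟨v, h⟩, k, rfl⟩; exact k
  have := Submodule.finrank_mono b
  have := Submodule.finrank_mono c
  rw [Submodule.finrank_map_subtype_eq] at this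
  omega

theorem ker_pow (f : End K M) (n : ℕ) : finrank K (LinearMap.ker (f ^ n)) ≤ n * finrank K (LinearMap.ker f) := by
  induction n with
  | zero => rw [pow_zero, End.one_eq_id, LinearMap.ker_id, finrank_bot]; omega
  | succ n ih => have := ker_comp (f ^ n) f; rw [pow_succ, add_mul]; omega

theorem coe_pow (b : Au K M) (n : ℕ) : ((b ^ n : Au K M) : End K M) = (b : End K M) ^ n :=
  map_pow LinearEquiv.automorphismGroup.toLinearMapMonoidHom b n

theorem unip0 {p : ℕ} [Fact p.Prime] [CharP K p] {b : Au K M} {n : ℕ} (h : b ^ p ^ n = 1) : ((b : End K M) - 1) ^ p ^ n = 0 := by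
  nontriviality M
  have : CharP (End K M) p := charP_of_injective_algebraMap (algebraMap K _).injective p
  rw [sub_pow_char_pow_of_commute _ _ (Commute.one_right _), ← coe_pow, h, one_pow]
  exact sub_self _

theorem unip {p : ℕ} [Fact p.Prime] [CharP K p] {b : Au K M} {n : ℕ} (h : b ^ p ^ n = 1) : finrank K M ≤ p ^ n * finrank K (fix b) := by
  have := ker_pow ((b : End K M) - 1) (p ^ n)
  rwa [unip0 h, LinearMap.ker_zero, finrank_top] at this

theorem ex_fix {b : Au K M} (h : rk b < finrank K M) : ∃ s, s ≠ 0 ∧ b s = s := by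
  simpa using fx3 b 1 1 (by rwa [rk_one])

/-- the stabiliser of a subspace -/
def Stb (σ : G →* Au K M) (W : Submodule K M) : Subgroup G where
  carrier := {g | ∀ x ∈ W, σ g x ∈ W}
  one_mem' x hx := by rwa [map_one]
  mul_mem' h k x hx := by rw [map_mul]; exact h _ (k x hx)
  inv_mem' {g} h x hx := by
    obtain ⟨y, hy, rfl⟩ := (Submodule.eq_of_le_of_finrank_eq (Submodule.map_le_iff_le_comap.2 h)
      (LinearEquiv.finrank_map_eq (σ g) W)).ge hx
    simpa using hy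

/-- the pointwise stabiliser of a subspace -/
def Fs (σ : G →* Au K M) (W : Submodule K M) : Subgroup G where
  carrier := {g | ∀ x ∈ W, σ g x = x}
  one_mem' x hx := by rw [map_one]; rfl
  mul_mem' h k x hx := by rw [map_mul]; exact (congrArg _ (k x hx)).trans (h x hx)
  inv_mem' {g} h x hx := by rw [map_inv]; exact (σ g).symm_apply_eq.2 (h x hx).symm

theorem ap_mul (σ : G →* Au K M) (g h : G) (x : M) : σ (g * h) x = σ g (σ h x) := by rw [map_mul]; rfl
theorem ap_inv (σ : G →* Au K M) (g : G) (x : M) : σ g⁻¹ (σ g x) = x := by rw [← ap_mul, inv_mul_cancel, map_one]; rfl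
theorem ap_inv' (σ : G →* Au K M) (g : G) (x : M) : σ g (σ g⁻¹ x) = x := by rw [← ap_mul, mul_inv_cancel, map_one]; rfl
theorem ap_cj (σ : G →* Au K M) (g h : G) (x : M) : σ (g * h * g⁻¹) (σ g x) = σ g (σ h x) := by
  rw [← ap_mul, inv_mul_cancel_right, ap_mul]
theorem fix_cj (σ : G →* Au K M) {g h : G} {x : M} : x ∈ fix (σ (g * h * g⁻¹)) ↔ σ g⁻¹ x ∈ fix (σ h) := by
  rw [mem_fix, mem_fix, ap_mul, ap_mul, ← (σ g⁻¹).injective.eq_iff, ap_inv]

/-- eigenvalue -/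
def Ev (g : Au K M) (c : K) : Prop := ∃ v, v ≠ 0 ∧ g v = c • v
theorem Ev.pow {g : Au K M} {c : K} (h : Ev g c) (n : ℕ) : Ev (g ^ n) (c ^ n) := by
  obtain ⟨v, v0, e⟩ := h
  refine ⟨v, v0, ?_⟩
  induction n with
  | zero => simp
  | succ n ih => rw [pow_succ, LinearEquiv.mul_apply, e, map_smul, ih, smul_smul, pow_succ']
theorem Ev.conj {g : Au K M} {c : K} (h : Ev g c) (k : Au K M) : Ev (k * g * k⁻¹) c := by
  obtain ⟨v, v0, e⟩ := h
  exact ⟨k v, k.map_ne_zero_iff.2 v0, by simp [e]⟩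

theorem scott (X Y : End K M) : finrank K ↥(LinearMap.range (X - 1) ⊔ LinearMap.range (Y - 1)) + finrank K M ≤
    finrank K (LinearMap.range (X - 1)) + finrank K (LinearMap.range (Y - 1)) +
      finrank K (LinearMap.range (X * Y - 1)) + finrank K ↥(LinearMap.ker (X - 1) ⊓ LinearMap.ker (Y - 1)) := by
  have a := (X * Y - 1).finrank_range_add_finrank_ker
  have c := Submodule.finrank_sup_add_finrank_inf_eq (LinearMap.range (X - 1)) (LinearMap.range (Y - 1))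
  have d := ((Y - 1).domRestrict (LinearMap.ker (X * Y - 1))).finrank_range_add_finrank_ker
  have e : LinearMap.range ((Y - 1).domRestrict (LinearMap.ker (X * Y - 1))) ≤
      LinearMap.range (X - 1) ⊓ LinearMap.range (Y - 1) := by
    rintro _ ⟨⟨v, h⟩, rfl⟩
    exact ⟨⟨-Y v, by simp [sub_eq_zero] at h; simp [h, neg_add_eq_sub]⟩, v, rfl⟩
  have f : (LinearMap.ker ((Y - 1).domRestrict (LinearMap.ker (X * Y - 1)))).map (Submodule.subtype _) ≤
      LinearMap.ker (X - 1) ⊓ LinearMap.ker (Y - 1) := by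
    rintro _ ⟨⟨v, h⟩, k, rfl⟩
    simp [sub_eq_zero] at h k ⊢
    exact ⟨by simpa [k] using h, k⟩
  have := Submodule.finrank_mono e
  have := Submodule.finrank_mono f
  rw [Submodule.finrank_map_subtype_eq] at this
  omega

theorem scott' {q : QuadraticForm K M} (hq : QNondeg q) {X Y : Au K M} (hX : X ∈ orth q) (hY : Y ∈ orth q)
    (h : rk X + rk Y + rk (X * Y) < 2 * finrank K M) : ∃ s, s ≠ 0 ∧ X s = s ∧ Y s = s := by
  have a := scott (X : End K M) Y
  have b := hq.finrank_add_finrank_perp (LinearMap.range ((X : End K M) - 1) ⊔ LinearMap.range ((Y : End K M) - 1))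
  have k : ∀ X ∈ orth q, (CForm.ofQuad q).perp (LinearMap.range ((X : End K M) - 1)) ≤ fix X := fun X hX s hs =>
    mem_fix.2 (hq.ext fun z => by
      obtain ⟨z, rfl⟩ := X.surjective z
      have : polar q (X z - z) s = 0 := hs _ ⟨z, rfl⟩
      rw [polar_sub_left, sub_eq_zero] at this
      exact (orth_polar ⟨X, hX⟩ s z).trans ((polar_comm _ _ _).trans (this.symm.trans (polar_comm _ _ _))))
  rw [CForm.perp_sup] at b
  have := Submodule.finrank_mono (inf_le_inf (k X hX) (k Y hY))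
  obtain ⟨x, hx, x0⟩ := (Submodule.ne_bot_iff _).1 (Submodule.one_le_finrank_iff.1
    (by change _ ≤ rk X + rk Y + rk (X * Y) + finrank K ↥(fix X ⊓ fix Y) at a; omega : 1 ≤ finrank K ↥(fix X ⊓ fix Y)))
  exact ⟨x, x0, mem_fix.1 hx.1, mem_fix.1 hx.2⟩
end

section
variable {K : Type u} [Field K] {n : Type} [Fintype n] [DecidableEq n] {ζ : K} {l : ℕ} (h : IsPrimitiveRoot ζ l) (l0 : l ≠ 0)
  {g : Au K (n → K)} {e : n → ℤ} (hg : ∀ x i, g x i = ζ ^ e i * x i)
include h l0 hg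

theorem rk_diag : rk g = (Finset.univ.filter fun i => ¬ (l : ℤ) ∣ e i).card := by
  rw [rk, show (g : End K (n → K)) - 1 = (Matrix.diagonal fun i => ζ ^ e i - 1).mulVecLin from LinearMap.ext fun x => funext fun i => by
    simp [hg, Matrix.mulVec_diagonal, sub_mul]]
  classical
  refine (Matrix.rank_diagonal _).trans ((Fintype.card_subtype _).trans (congrArg _ (Finset.filter_congr fun i _ => ?_)))
  rw [sub_ne_zero, ne_eq, h.zpow_eq_one_iff_dvd]

theorem ev_diag (m : ℤ) : Ev g (ζ ^ m) ↔ ∃ i, (l : ℤ) ∣ e i - m := by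
  have k : ∀ i, (l : ℤ) ∣ e i - m ↔ ζ ^ e i = ζ ^ m := fun i => by
    rw [← h.zpow_eq_one_iff_dvd, zpow_sub₀ (h.ne_zero l0), div_eq_one_iff_eq (zpow_ne_zero _ (h.ne_zero l0))]
  refine ⟨fun ⟨v, v0, e⟩ => ?_, fun ⟨i, d⟩ => ⟨Pi.single i 1, by simp, funext fun j => ?_⟩⟩
  · obtain ⟨i, hi⟩ := Function.ne_iff.1 v0
    exact ⟨i, (k i).2 (mul_right_cancel₀ hi ((hg v i).symm.trans (congrFun e i)))⟩
  · by_cases j = i <;> simp_all

theorem pow_diag : g ^ l = 1 := by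
  have : ∀ m : ℕ, ∀ x i, (g ^ m) x i = (ζ ^ e i) ^ m * x i := fun m => by
    induction m with
    | zero => simp
    | succ m ih => intro x i; rw [pow_succ, LinearEquiv.mul_apply, ih, hg, pow_succ, mul_assoc]
  refine LinearEquiv.ext fun x => funext fun i => ?_
  rw [this, ← zpow_natCast, ← zpow_mul, mul_comm (e i), zpow_mul, zpow_natCast, h.pow_eq_one, one_zpow, one_mul]; rfl
end

def eV (a b c : ℕ) : ι → ℤ := Sum.elim (fun _ => 0) (Sum.elim ![a, b, c] ![-a, -b, -c])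
def eS (a b c : ℕ) (d : ℤ) : Fin 8 → ℤ := ![d, a - d, b - d, c - d, d - a, d - b, d - c, -d]

variable {K : Type u} [Field K] {G : Type v} [Group G]

theorem tw [IsAlgClosed K] (tr : TR.{u, v}) (R : Rp K G) {z : G} {l : ℕ} (o : Odd l) (l0 : (l : K) ≠ 0) (e : z ^ l = 1) :
    ∃ ζ : K, IsPrimitiveRoot ζ l ∧ ∃ a < l, ∃ b < l, ∃ c < l, (∀ m : ℤ, Ev (R.ρ z) (ζ ^ m) ↔ ∃ i, (l : ℤ) ∣ eV a b c i - m) ∧
      R.r z = (Finset.univ.filter fun i => ¬ (l : ℤ) ∣ eV a b c i).card ∧ ∃ B, Lift (R.ρ z) B ∧ B ^ l = 1 ∧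
        rk B = (Finset.univ.filter fun i => ¬ (l : ℤ) ∣ eS a b c ((a + b + c) * (l / 2 + 1) : ℕ) i).card := by
  have := NeZero.mk l0
  have := NeZero.of_neZero_natCast K (n := l)
  have n0 := NeZero.ne l
  obtain ⟨ζ, h⟩ := HasEnoughRootsOfUnity.exists_primitiveRoot K l
  have z0 := h.ne_zero n0
  obtain ⟨k, hk, dk, t, ht⟩ := (tr K).1 G R (zpowers z) l o l0 (by
    rintro _ ⟨i, rfl⟩; simp only; rw [← zpow_natCast, ← zpow_mul, mul_comm, zpow_mul, zpow_natCast, e, one_zpow])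
    (by rintro _ ⟨i, rfl⟩ _ ⟨j, rfl⟩; exact zpow_mul_comm z i j)
  obtain ⟨h1, -, h2⟩ := ht z (mem_zpowers z)
  obtain ⟨a, la, ea⟩ := h.eq_pow_of_pow_eq_one (h1 0)
  obtain ⟨b, lb, eb⟩ := h.eq_pow_of_pow_eq_one (h1 1)
  obtain ⟨c, lc, ec⟩ := h.eq_pow_of_pow_eq_one (h1 2)
  have h3 : ∀ x, (k⁻¹ * R.ρ z * k⁻¹⁻¹) x = tor (t z) x := fun x => by simp [h2]
  have h4 : ∀ x i, (k⁻¹ * R.ρ z * k⁻¹⁻¹) x i = ζ ^ eV a b c i * x i := fun x i => by
    rw [h3]
    rcases i with _ | i | i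
    · simp [tor, eV]
    all_goals fin_cases i <;> simp [tor, eV, ea, eb, ec]
  obtain ⟨B, hB, h5⟩ := (tr K).2 _ _ (ζ ^ ((a + b + c) * (l / 2 + 1))) (fun i e => by simpa [e, n0] using h1 i) (by
    obtain ⟨m, rfl⟩ := o
    rw [← ea, ← eb, ← ec, ← pow_add, ← pow_add, ← pow_mul, show (a + b + c) * ((2 * m + 1) / 2 + 1) * 2 =
      (2 * m + 1) * (a + b + c) + (a + b + c) by rw [show (2 * m + 1) / 2 = m by omega]; ring, pow_add, pow_mul, h.pow_eq_one]
    simp) h3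
  have h6 : ∀ x i, B x i = ζ ^ eS a b c ((a + b + c) * (l / 2 + 1) : ℕ) i * x i := fun x i => by
    rw [h5]
    generalize (a + b + c) * (l / 2 + 1) = d
    fin_cases i <;> simp [torS, eS, ea, eb, ec, zpow_sub₀ z0]
  obtain ⟨C, hC⟩ := lift_so R.two hk dk
  refine ⟨ζ, h, a, la, b, lb, c, lc, fun m => ?_, ?_, C * B * C⁻¹, ?_, ?_, ?_⟩
  · rw [← ev_diag h n0 h4]
    exact ⟨fun e => e.conj _, fun e => by simpa [mul_assoc] using e.conj k⟩
  · rw [← rk_diag h n0 h4, rk_conj, Rp.r]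
  · simpa [mul_assoc] using (hC.mul hB).mul hC.inv
  · rw [conj_pow, pow_diag h n0 h6, mul_one, mul_inv_cancel]
  · rw [rk_conj, rk_diag h n0 h6]

theorem odd_p (p : ℕ) [hp : Fact p.Prime] [CharP K p] (h : (2 : K) ≠ 0) : Odd p :=
  hp.1.odd_of_ne_two (by rintro rfl; exact h (CharP.cast_eq_zero K 2))

theorem ex_lift [IsAlgClosed K] (R : Rp K G) (g : G) : ∃ b, Lift (R.ρ g) b := lift_so R.two (R.iso g) (R.det g)

theorem ex_odd [IsAlgClosed K] (R : Rp K G) {g : G} {n : ℕ} (o : Odd n) (e : g ^ n = 1) : ∃! b, Lift (R.ρ g) b ∧ b ^ n = 1 :=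
  let ⟨_, h⟩ := ex_lift R g; lift_odd R.two h o (by rw [← map_pow, e, map_one])

theorem u3a [IsAlgClosed K] (tr : TR.{u, v}) (R : Rp K G) {y : G} (e : y ^ 3 = 1) (h : R.r y = 4 ∨ (3 : K) = 0) :
    ∃ b, Lift (R.ρ y) b ∧ b ^ 3 = 1 ∧ rk b ≤ 4 := by
  by_cases l0 : ((3 : ℕ) : K) = 0
  · have := (CharP.charP_iff_prime_eq_zero Nat.prime_three).2 l0
    obtain ⟨b, ⟨h, e⟩, -⟩ := ex_odd R (by decide) e
    have := unip (p := 3) (n := 1) e
    have := rk_add_fix b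
    obtain ⟨k, hk⟩ := ev K _ _ R.two Nm_nd b h.orth 3 (by decide) e
    exact ⟨b, h, e, by rw [finrank_S] at *; omega⟩
  obtain ⟨ζ, -, a, la, b, lb, c, lc, -, h1, B, h2, h3, h4⟩ := tw tr R (by decide) l0 e
  refine ⟨B, h2, h3, h4 ▸ ?_⟩
  rw [h.resolve_right (by exact_mod_cast l0)] at h1
  revert h1; clear h4; revert a b c; decide +kernel

set_option synthInstance.maxSize 1024 in
theorem u3 (tr : TR.{u, v}) : U3.{u, v} := by
  intro K _ _ p hp _ G _ R
  have ch : ∀ {l : ℕ}, l.Prime → (l : K) = 0 → p = l := fun hl e =>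
    (Nat.prime_dvd_prime_iff_eq hp.1 hl).1 ((CharP.cast_eq_zero_iff K p _).1 e)
  have A : ∀ z n, z ^ p ^ n = 1 → ∃ s, s ≠ 0 ∧ z ∈ R.Fx s := fun z n e => by
    obtain ⟨b, ⟨h, e⟩, -⟩ := ex_odd R (odd_p p R.two).pow e
    have := unip e
    have := rk_add_fix b
    obtain ⟨s, s0, k⟩ := ex_fix (b := b) (by
      rcases Nat.eq_zero_or_pos (finrank K (fix b)) with k | k <;> simp_all; omega)
    exact ⟨s, s0, b, h, k⟩
  have B : ∀ z (l m : ℕ), l.Prime → Odd l → z ^ l = 1 → ((l : K) ≠ 0 → ∀ c, c ^ l = 1 → Ev (R.ρ z) c → Ev (R.ρ z) (c ^ m)) →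
      (∀ a < l, ∀ b < l, ∀ c < l, (∀ i, ∃ j, (l : ℤ) ∣ eV a b c j - eV a b c i * m) →
        ∃ i, (l : ℤ) ∣ eS a b c ((a + b + c) * (l / 2 + 1) : ℕ) i) → ∃ s, s ≠ 0 ∧ z ∈ R.Fx s := fun z l m hl o e h d => by
    by_cases l0 : (l : K) = 0
    · exact A z 1 (by rwa [pow_one, ch hl l0])
    obtain ⟨ζ, k, a, la, b, lb, c, lc, h1, -, B, h2, -, h3⟩ := tw tr R o l0 e
    obtain ⟨i, hi⟩ := d a la b lb c lc fun i => (h1 _).1 (by
      rw [zpow_mul, zpow_natCast]
      exact h l0 _ (by rw [← zpow_natCast, ← zpow_mul, mul_comm, zpow_mul, zpow_natCast, k.pow_eq_one, one_zpow])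
        ((h1 _).2 ⟨i, by simp⟩))
    obtain ⟨s, s0, k⟩ := ex_fix (b := B) (by
      rw [h3, finrank_S]; exact (Finset.card_lt_card (Finset.filter_ssubset.2 ⟨i, Finset.mem_univ i, not_not.2 hi⟩)))
    exact ⟨s, s0, B, h2, k⟩
  have C : ∀ {z : G} {m : ℕ}, IsConj z (z ^ m) → ∀ c, Ev (R.ρ z) c → Ev (R.ρ z) (c ^ m) := fun {z m} h c e => by
    obtain ⟨k, hk⟩ := isConj_iff.1 h.symm
    have := (e.pow m).conj (R.ρ k)
    rwa [← map_pow, ← map_inv, ← map_mul, ← map_mul, hk] at this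
  refine ⟨fun y => u3a tr R, ?_⟩
  rintro z (⟨n, e⟩ | ⟨e, h⟩ | ⟨e, h⟩ | ⟨e, x, h⟩)
  · exact A z n e
  · exact B z 7 2 (by norm_num) (by decide) e (fun _ c _ => C h c) (by decide +kernel)
  · exact B z 13 3 (by norm_num) (by decide) e (fun _ c _ => C h c) (by decide +kernel)
  refine B z 7 2 (by norm_num) (by decide) e (fun _ c c7 _ => ?_) (by decide +kernel)
  replace c7 : (c ^ 2) ^ 7 = 1 := by rw [← pow_mul, mul_comm, pow_mul, c7, one_pow]
  generalize c ^ 2 = c at *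
  refine ⟨∑ i : Fin 7, c ^ (6 - i.1) • R.ρ (z ^ i.1) x, fun k => ?_, ?_⟩
  · simpa using Fintype.linearIndependent_iff.1 h _ k 6
  · simp only [Fin.sum_univ_seven, map_add, map_smul, ← R.ρ_mul, ← pow_succ', smul_add, smul_smul]
    simp only [Fin.isValue, Fin.coe_ofNat_eq_mod, Nat.reduceMod, Nat.reduceAdd, Nat.reduceSub, e, c7, pow_zero]
    abel

theorem hz (u3 : U3.{u, v}) (ak : AK.{u, v}) : HZ.{u, v} := by
  intro K _ _ p hp _ G _ _ R x y x2 y3 o
  have A : R.r x = 4 → R.r y = 4 ∨ (3 : K) = 0 → ∃ s, s ≠ 0 ∧ x ∈ R.Fx s ∧ y ∈ R.Fx s := fun rx ry => by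
    obtain ⟨Y, hY, -, rY⟩ := (u3 K p G R).1 y y3 ry
    obtain ⟨s, s0, Z, hZ, e⟩ := (u3 K p G R).2 _ o
    have hX := hZ.mul hY.inv
    rw [← map_inv, ← map_mul, mul_inv_cancel_right] at hX
    have := (lift_inv R.two (R.iso x) (by rw [← map_mul, x2, map_one]) rx hX).2
    have := rk_add_fix Z
    have := Submodule.one_le_finrank_iff.2 ((Submodule.ne_bot_iff _).2 ⟨s, mem_fix.2 e, s0⟩)
    obtain ⟨s, s0, h1, h2⟩ := scott' Nm_nd hZ.orth hY.inv.orth (by rw [rk_inv, finrank_S] at *; omega)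
    exact ⟨s, s0, ⟨_, hX, (congrArg Z h2).trans h1⟩, Y, hY, mem_fix.1 (fix_inv Y ▸ mem_fix.2 h2)⟩
  refine ⟨A, fun hi nc pf gen h => ?_⟩
  have yi : y⁻¹ = y * y := inv_eq_of_mul_eq_one_left (by rw [← y3, pow_three'])
  have rx : R.r x = 4 := by_contra fun n => by
    have l : R.r x ≤ 2 := by
      by_cases x1 : x = 1
      · rw [x1, Rp.r, map_one, rk_one]; omega
      · have := nc x x2; have := (e2 K G R).1 x x2 x1; omega
    obtain ⟨v, v0, h⟩ := fx3 (R.ρ x) (R.ρ (y * x * y⁻¹)) (R.ρ (y⁻¹ * x * y⁻¹⁻¹)) (by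
      have := R.r_conj y x; have := R.r_conj y⁻¹ x; rw [finrank_V]; unfold Rp.r at *; omega)
    rcases hi _ (fun g => (gen.ge.trans ((closure_le (Stb R.ρ
      (fix (R.ρ x) ⊓ fix (R.ρ (y * x * y⁻¹)) ⊓ fix (R.ρ (y⁻¹ * x * y⁻¹⁻¹))))).2 (Set.pair_subset (fun v h => by rwa [mem_fix.1 h.1.1])
      fun v h => ⟨⟨by simpa using (fix_cj R.ρ).1 h.2, (fix_cj R.ρ).2 (by rw [ap_inv]; exact h.1.1)⟩, (fix_cj R.ρ).2 (by
        rw [inv_inv, ← ap_mul, ← yi]; exact (fix_cj R.ρ).1 h.1.2)⟩))) trivial) with e | e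
    · exact v0 (e.le ⟨⟨mem_fix.2 h.1, mem_fix.2 h.2.1⟩, mem_fix.2 h.2.2⟩)
    · obtain rfl : x = 1 := R.inj (LinearEquiv.ext fun v => by rw [map_one]; exact mem_fix.1 (e.ge trivial).1.1)
      have : commutator G = ⊥ := commutator_eq_bot_iff_le_centralizer.2 (gen.ge.trans ((closure_le _).2 (Set.pair_subset (one_mem _)
        fun g _ => (mem_centralizer_singleton_iff.1 ((gen.ge.trans ((closure_le (centralizer {y})).2
          (Set.pair_subset (one_mem _) (mem_centralizer_singleton_iff.2 rfl)))) trivial)))))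
      exact v0 (hi.fixed fun g => by rw [show g = 1 from (pf.ge.trans this.le) trivial, map_one]; rfl)
  obtain ⟨s, s0, h1, h2⟩ := A rx (h.elim .inl fun h => h.elim .inr fun ⟨t, y', c, c', a⟩ =>
    .inl ((R.r_isConj c').trans ((ak K G R).1 t y' a ((R.r_isConj c).symm.trans rx)).1))
  exact ⟨s, s0, fun g => (gen.ge.trans ((closure_le _).2 (Set.pair_subset h1 h2))) trivial⟩

end H10.O7
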