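/-
S5815: the piece `SR`.
-/
import Cfsg.Agent.H26.O7B
import Cfsg.Agent.H27.O7a

set_option autoImplicit false
set_option linter.unusedSectionVars false
set_option linter.unusedVariables false

open Module QuadraticMap H12 Cfsg Subgroup H26.O7 Sum
open scoped IsMulCommutative
namespace H10.O7
universe u v
attribute [-simp] H11.coe_qOdd

set_option synthInstance.maxSize 4096 in
theorem d1 : ∀ O : Finset (Fin 3 → Bool), (∀ a ∈ O, ∀ b ∈ O, (fun i => xor (a i) (b i)) ∈ O) → (fun _ => true) ∉ O →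
    O.card ≤ 4 ∧ (2 < O.card → (∀ k : Fin 3, ∀ s : Fin 3 → Bool, (∀ a ∈ O, ∃ i, i ≠ k ∧ s i = a i) → ∃ i, i ≠ k ∧ ∀ a ∈ O, a i = false) ∧
      ∀ i j, i ≠ j → (∀ a ∈ O, a i = false) → ¬ ∀ a ∈ O, a j = false) := by decide +kernel
set_option synthInstance.maxSize 4096 in
theorem d2 : ∀ O : Finset (Fin 3 → Bool), (∀ a ∈ O, ∀ b ∈ O, (fun i => xor (a i) (b i)) ∈ O) →
    O.card ≤ 8 ∧ (4 < O.card → ∀ k, (fun i => decide (i = k)) ∈ O) ∧ ∀ k i j, i ≠ j → i ≠ k → j ≠ k → (∀ a ∈ O, a i = a j) →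
      O.card ≤ 4 ∧ (2 < O.card → (fun i => decide (i = k)) ∈ O) := by decide +kernel
set_option synthInstance.maxSize 4096 in
theorem d3 : ∀ σ : Equiv.Perm (Fin 3), σ ≠ 1 → σ * σ = 1 → ∃ k, (∃ i, i ≠ k) ∧ ∀ i, i ≠ k → σ i ≠ i ∧ σ i ≠ k := by decide

abbrev J : Type := Fin 3 ⊕ Fin 3
def pr : J → Fin 3 := Sum.elim id id
variable {K : Type u} [Field K] {G : Type v} [Group G] [Finite G] {R : Rp K G} {π : G →* Equiv.Perm J} {c : G → J → K}
  {g h t : G} {i k : Fin 3} {j : J}
abbrev e (j : J) : V K := Pi.single (.inr j) 1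

theorem polar_e (j : J) (y : V K) : polar (Q K) (e j) y = y (.inr j.swap) := by
  rcases j with i | i <;> fin_cases i <;> simp [polar, Q_apply] <;> ring

theorem e_inj {a b : K} {j l : J} (a0 : a ≠ 0) (h : a • (e j : V K) = b • e l) : j = l ∧ a = b := by
  have := congrFun h (inr j)
  by_cases k : j = l <;> simp_all

/-- a monomial representation -/
def Mn (R : Rp K G) (π : G →* Equiv.Perm J) (c : G → J → K) : Prop := ∀ g j, R.ρ g (e j) = c g j • e (π g j)

theorem ne0 {a : K} {l : J} (h : R.ρ g (e j) = a • e l) : a ≠ 0 := by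
  rintro rfl; simpa using h

theorem ex_mn (h : ∀ g, H26.O7.Mon (R.ρ g)) : ∃ π c, Mn R π c := by
  unfold H26.O7.Mon at h
  choose k c h using h
  let _ : MulAction G J :=
    { smul := k
      one_smul := fun j => (e_inj (ne0 (h 1 j)) ((h 1 j).symm.trans (by rw [map_one]; exact (one_smul _ _).symm))).1
      mul_smul := fun a b j => (e_inj (ne0 (h _ j)) ((h _ j).symm.trans (by
        rw [R.ρ_mul, h, map_smul, h, smul_smul]; rfl))).1 }
  exact ⟨MulAction.toPermHom G J, c, h⟩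

namespace Mn
variable (m : Mn R π c)
include m

theorem mul (g h : G) (j : J) : c (g * h) j = c g (π h j) * c h j :=
  (e_inj (ne0 (m _ j)) ((m _ j).symm.trans (by rw [R.ρ_mul, m, map_smul, m, smul_smul, mul_comm]))).2
theorem one (j : J) : c 1 j = 1 := (e_inj (ne0 (m _ j)) ((m 1 j).symm.trans (by rw [map_one]; exact (one_smul _ _).symm))).2
theorem sw (g : G) (j : J) : π g j.swap = (π g j).swap ∧ c g j * c g j.swap = 1 := by
  have := R.polar_ρ g (e j) (e j.swap)
  rw [m, m, polar_smul_left, polar_smul_right, polar_e, polar_e] at this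
  by_cases k : (π g j).swap = π g j.swap <;> simp_all [mul_assoc]
theorem co (g : G) (x : V K) (j : J) : R.ρ g x (inr (π g j)) = c g j * x (inr j) := by
  have := R.polar_ρ g (e j.swap) x
  rw [m, polar_smul_left, polar_e, polar_e, (m.sw g j).1, swap_swap, swap_swap, smul_eq_mul] at this
  rw [← this, ← mul_assoc, (m.sw g j).2, one_mul]
theorem triv (h1 : π g = 1) (h2 : ∀ j, c g j = 1) : g = 1 := R.inj ((H27.O7.rk_le_one R.two (Q_nd R.two) (R.iso g)
  (Units.ext ((LinearEquiv.coe_det _).trans (R.det g))) (v := Pi.single (inl ()) 1) fun y => ⟨(R.ρ g y - y) (inl ()), funext fun i => by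
    rcases i with _ | j
    · simp
    · simpa [h1, h2, sub_eq_zero, eq_comm (a := (0 : K))] using m.co g y j⟩).trans (map_one _).symm)
theorem all {P : K → Prop} (hP : ∀ a b, a * b = 1 → P a → P b) (h : ∀ i, P (c g (inl i))) : ∀ j, P (c g j)
  | inl i => h i
  | inr i => hP _ _ (m.sw g (inl i)).2 (h i)
theorem fx : π g j = j ↔ π g (inl (pr j)) = inl (pr j) := by
  rcases j with i | i
  · rfl
  · exact (by rw [← (m.sw g (inl i)).1]; rfl : _ ↔ (π g (inl i)).swap = (inl i : J).swap).trans swap_leftInverse.injective.eq_iff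
theorem ext (k : ∀ i, π g (inl i) = π h (inl i)) : π g = π h := Equiv.ext fun
  | inl i => k i
  | inr i => (m.sw g (inl i)).1.trans (k i ▸ (m.sw h (inl i)).1.symm)
theorem prπ (g : G) (j : J) : pr (π g (inl (pr j))) = pr (π g j) := by
  rcases j with i | i
  · rfl
  · rw [show π g (inr i) = _ from (m.sw g (inl i)).1]; change pr (π g (inl i)) = _; cases π g (inl i) <;> rfl

theorem noc (nc : R.NoC) (tt : t * t = 1) (h1 : ∀ i, i ≠ k → π t (inl i) = inl i ∧ c t (inl i) = -1)
    (h2 : π t (inl k) = inr k ∨ π t (inl k) = inl k ∧ c t (inl k) = -1) : False := by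
  have z : ∀ x ∈ fix (R.ρ t), ∀ i, π t (inl i) = inl i ∧ c t (inl i) = -1 → x (inr (inl i)) = 0 ∧ x (inr (inr i)) = 0 := fun x hx i h => by
    have a := m.co t x (inl i)
    have b := m.co t x (inr i)
    have := (m.sw t (inl i)).2
    rw [(m.fx (j := inr i)).2 h.1, show c t (inr i) = -1 by rw [h.2, swap_inl] at this; linear_combination -this] at b
    rw [h.1, h.2] at a
    rw [mem_fix.1 hx, neg_one_mul] at a b
    exact ⟨eq_zero_of_neg R.two a, eq_zero_of_neg R.two b⟩
  have := LinearMap.finrank_le_finrank_of_injective (f := ((LinearMap.proj (inl ())).prod (LinearMap.proj (inr (inl k)))).comp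
    (fix (R.ρ t)).subtype) ((injective_iff_map_eq_zero _).2 fun ⟨x, hx⟩ h => Subtype.ext (funext fun i => by
      have h0 : x (inl ()) = 0 := congrArg Prod.fst h
      have h3 : x (inr (inl k)) = 0 := congrArg Prod.snd h
      have h4 : x (inr (inr k)) = 0 := h2.elim (fun e => by simpa [e, h3, mem_fix.1 hx] using m.co t x (inl k)) fun e => (z x hx k e).2
      rcases i with _ | i | i
      · exact h0
      · by_cases e : i = k; exacts [e ▸ h3, (z x hx i (h1 i e)).1]
      · by_cases e : i = k; exacts [e ▸ h4, (z x hx i (h1 i e)).2]))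
  rw [finrank_prod, finrank_self] at this
  have := R.fr_fix t
  have := nc t tt
  by_cases t1 : t = 1
  · have : R.r t = 0 := by rw [t1, Rp.r, map_one, rk_one]
    omega
  · have := (e2 K G R).1 t tt t1; omega

theorem mul0 (hh : h ∈ π.ker) (g : G) (j : J) : c (g * h) j = c g j * c h j := by rw [m.mul, MonoidHom.mem_ker.1 hh]; rfl
theorem comm : IsMulCommutative π.ker := ⟨⟨fun a b => Subtype.ext (mul_inv_eq_one.1 (m.triv (by
    simp [MonoidHom.mem_ker.1 a.2, MonoidHom.mem_ker.1 b.2]) fun j => by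
  have := m.mul0 (mul_mem b.2 a.2) (b * a : G)⁻¹ j
  rw [inv_mul_cancel, m.one, m.mul0 a.2] at this
  rw [coe_mul, coe_mul, m.mul0 (inv_mem (mul_mem b.2 a.2)), m.mul0 b.2, this]; ring))⟩⟩
theorem pm (hh : h ∈ π.ker) (e : h * h = 1) (j : J) : c h j = 1 ∨ c h j = -1 :=
  mul_self_eq_one_iff.1 (by rw [← m.mul0 hh, e, m.one])
end Mn

theorem sr : SR.{u, v} := by
  classical
  intro K _ G _ _ R pg nc mon N nN sq
  obtain ⟨π, c, m⟩ := ex_mn mon
  have n1 : (1 : K) ≠ -1 := fun e => R.two (by linear_combination e)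
  let _ : MulAction G (Fin 3) :=
    { smul := fun g i => pr (π g (inl i))
      one_smul := fun i => by change pr (π 1 _) = _; rw [map_one]; rfl
      mul_smul := fun a b i => by change pr (π _ _) = pr (π a (inl (pr _))); rw [m.prπ, map_mul]; rfl }
  let τ := MulAction.toPermHom G (Fin 3)
  have hτ : ∀ g i, τ g i = pr (π g (inl i)) := fun _ _ => rfl
  have l01 : π.ker ≤ τ.ker := fun g h => Equiv.ext fun i => by rw [hτ, MonoidHom.mem_ker.1 h]; rfl
  have k1 : ∀ y ∈ τ.ker, ∀ i, π y (inl i) = inl i ∨ π y (inl i) = inr i := fun y h i => by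
    have := (hτ y i).symm.trans (Equiv.congr_fun (MonoidHom.mem_ker.1 h) i)
    revert this; rcases π y (inl i) with l | l <;> simp [pr]
  have i1 : τ.ker.index ∣ 2 := by
    obtain ⟨n, e⟩ := pg.index τ.ker
    have := index_ker τ ▸ card_subgroup_dvd_card τ.range
    rw [Nat.card_perm, Nat.card_fin, e] at this
    rw [e]; exact (((Nat.coprime_primes Nat.prime_two Nat.prime_three).2 (by decide)).pow_left n).dvd_of_dvd_mul_left this
  let A : Finset (Fin 3 → Bool) := Finset.univ.filter fun a => ∃ y ∈ τ.ker, a = fun i => decide (π y (inl i) ≠ inl i)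
  let O : Finset (Fin 3 → Bool) := Finset.univ.filter fun a => ∃ y ∈ π.ker, y * y = 1 ∧ a = fun i => decide (c y (inl i) = -1)
  have mA : ∀ {a}, a ∈ A ↔ ∃ y ∈ τ.ker, a = fun i => decide (π y (inl i) ≠ inl i) := by simp only [A, Finset.mem_filter_univ, implies_true]
  have mO : ∀ {a}, a ∈ O ↔ ∃ y ∈ π.ker, y * y = 1 ∧ a = fun i => decide (c y (inl i) = -1) := by
    simp only [O, Finset.mem_filter_univ, implies_true]
  clear_value A O
  have := m.comm
  obtain ⟨A8, A4, A2⟩ := d2 A fun a ha b hb => by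
    obtain ⟨x, hx, rfl⟩ := mA.1 ha
    obtain ⟨y, hy, rfl⟩ := mA.1 hb
    refine mA.2 ⟨_, mul_mem hx hy, funext fun i => ?_⟩
    have : π x (inr i) = _ := (m.sw x (inl i)).1
    rcases k1 x hx i with a | a <;> rcases k1 y hy i with b | b <;> simp [this, a, b]
  obtain ⟨O4, O2⟩ := d1 O (fun a ha b hb => by
    obtain ⟨x, hx, x2, rfl⟩ := mO.1 ha
    obtain ⟨y, hy, y2, rfl⟩ := mO.1 hb
    refine mO.2 ⟨_, mul_mem hx hy, by rw [mul_assoc, ← mul_assoc y, ← setLike_mul_comm hx hy, mul_assoc, y2, mul_one, x2],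
      funext fun i => ?_⟩
    rcases m.pm hx x2 (inl i) with a | a <;> rcases m.pm hy y2 (inl i) with b | b <;> simp [m.mul0 hy, a, b, n1]) fun h => by
      obtain ⟨x, hx, x2, e⟩ := mO.1 h
      have : ∀ i, π x (inl i) = inl i ∧ c x (inl i) = -1 := fun i =>
        ⟨by rw [MonoidHom.mem_ker.1 hx]; rfl, of_decide_eq_true (congrFun e i).symm⟩
      exact m.noc (k := 0) nc x2 (fun i _ => this i) (.inr (this 0))
  have cA : π.ker.relIndex τ.ker ≤ A.card := by
    rw [relIndex_ker, ← Nat.card_eq_finsetCard]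
    refine Nat.card_le_card_of_injective (fun x => ⟨fun i => decide (x.1 (inl i) ≠ inl i), let ⟨y, h, e⟩ := x.2; mA.2 ⟨y, h, e ▸ rfl⟩⟩) ?_
    rintro ⟨_, x, hx, rfl⟩ ⟨_, y, hy, rfl⟩ e
    refine Subtype.ext (m.ext fun i => ?_)
    have := congrFun (congrArg Subtype.val e) i
    revert this
    rcases k1 x hx i with a | a <;> rcases k1 y hy i with b | b <;> simp [a, b]
  have cO : (powMonoidHom 2 : π.ker →* π.ker).range.index ≤ O.card := by
    have s : ∀ x : (powMonoidHom 2 : π.ker →* π.ker).ker, x.1.1 * x.1.1 = 1 := fun x => (pow_two _).symm.trans (congrArg Subtype.val x.2)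
    rw [index_range, ← Nat.card_eq_finsetCard]
    refine Nat.card_le_card_of_injective (fun x => ⟨_, mO.2 ⟨x.1.1, x.1.2, s x, rfl⟩⟩) fun x y e =>
      Subtype.ext (Subtype.ext ((inv_eq_of_mul_eq_one_left (s x)).symm.trans (inv_eq_of_mul_eq_one_right
        (m.triv (mul_mem x.1.2 y.1.2) (m.all (P := (· = 1)) (fun a b h e => by rwa [e, one_mul] at h) fun i => ?_)))))
    have := congrFun (congrArg Subtype.val e) i
    revert this
    rcases m.pm x.1.2 (s x) (inl i) with a | a <;> rcases m.pm y.1.2 (s y) (inl i) with b | b <;> simp [m.mul0 y.1.2, a, b, n1]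
  have sl : (powMonoidHom 2 : π.ker →* π.ker).range ≤ N.subgroupOf π.ker := by rintro _ ⟨x, rfl⟩; exact (show x.1 ^ 2 ∈ N from (pow_two x.1).symm ▸ sq x.1)
  have e0 := relIndex_mul_index sl
  have p0 : 0 < (powMonoidHom 2 : π.ker →* π.ker).range.relIndex (N.subgroupOf π.ker) := Nat.pos_of_ne_zero index_ne_zero_of_finite
  change _ * N.relIndex π.ker = _ at e0
  have key : 2 < N.relIndex π.ker → 2 < O.card ∧ ∀ k, (fun i => decide (i = k)) ∈ A → ∃ i, i ≠ k ∧ ∀ a ∈ O, a i = false := fun l => by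
    have l2 : 2 < O.card := by nlinarith
    refine ⟨l2, fun k h => ?_⟩
    obtain ⟨n, hn, e⟩ := mA.1 h
    have h1 : ∀ i, i ≠ k → π n (inl i) = inl i := fun i ik => by simpa [ik] using congrFun e i
    have h2 : π n (inl k) = inr k := (k1 n hn k).resolve_left (by simpa using congrFun e k)
    have h3 : π n (inr k) = inl k := (m.sw n (inl k)).1.trans (h2 ▸ rfl)
    have n0 : n * n ∈ π.ker := (m.ext fun i => by
      by_cases e : i = k; exacts [by simp [e, h2, h3], by simp [h1 i e]]).trans (map_one π)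
    obtain ⟨⟨b, b0⟩, hb⟩ := (relIndex_eq_one.1 (by nlinarith) : _ ≤ (powMonoidHom 2 : π.ker →* π.ker).range)
      (show ⟨_, n0⟩ ∈ N.subgroupOf π.ker from sq n)
    replace hb : b * b = n * n := (pow_two _).symm.trans (congrArg Subtype.val hb)
    have h4 : ∀ y ∈ π.ker, y * y = 1 → ∀ i, i ≠ k → c (n * (b⁻¹ * y)) (inl i) * c (n * (b⁻¹ * y)) (inl i) = 1 := fun y hy y2 i ik => by
      have a1 := m.mul0 b0 b⁻¹ (inl i)
      have a2 := m.mul0 hy y (inl i)
      have a3 := m.mul n n (inl i)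
      rw [← hb, m.mul0 b0, h1 i ik] at a3
      rw [inv_mul_cancel, m.one] at a1
      rw [y2, m.one] at a2
      rw [m.mul0 (mul_mem (inv_mem b0) hy), m.mul0 hy]
      linear_combination -(c b⁻¹ (inl i)) ^ 2 * c y (inl i) ^ 2 * a3 - a2 -
        c y (inl i) ^ 2 * (1 + c b⁻¹ (inl i) * c b (inl i)) * a1
    refine (O2 l2).1 k (fun i => decide (c (n * (b⁻¹ * 1)) (inl i) = -1)) fun a ha => by_contra fun h => ?_
    obtain ⟨y, hy, y2, rfl⟩ := mO.1 ha
    have e1 : π (n * (b⁻¹ * y)) = π n := by rw [map_mul, MonoidHom.mem_ker.1 (mul_mem (inv_mem b0) hy), mul_one]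
    refine m.noc (k := k) (t := n * (b⁻¹ * y)) nc (m.triv (by rw [map_mul, e1, ← map_mul]; exact n0)
      (m.all (P := (· = 1)) (fun a b h e => by rwa [e, one_mul] at h) fun i => ?_)) (fun i ik => ⟨e1 ▸ h1 i ik, ?_⟩) (.inl (e1 ▸ h2))
    · rw [m.mul, e1]
      by_cases e : i = k
      · rw [e, h2, mul_comm]; exact (m.sw _ (inl k)).2
      · rw [h1 i e, h4 y hy y2 i e]
    · have : decide (_ = _) ≠ decide (c y (inl i) = -1) := fun e => h ⟨i, ik, e⟩
      have e : c (n * (b⁻¹ * y)) (inl i) = c (n * (b⁻¹ * 1)) (inl i) * c y (inl i) := by rw [← m.mul0 hy, mul_one, mul_assoc]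
      revert this
      rw [e]
      rcases m.pm hy y2 (inl i) with a | a <;> rcases mul_self_eq_one_iff.1 (h4 1 (one_mem _) (one_mul 1) i ik) with b | b <;>
        rw [a, b] <;> simp [n1]
  have e1 := relIndex_mul_index (le_sup_left : N ≤ N ⊔ π.ker)
  have e2 := relIndex_mul_index (sup_le_sup_left l01 N)
  have e3 := relIndex_mul_relIndex _ _ _ (le_inf (le_sup_right (a := N)) l01) (inf_le_right (b := τ.ker))
  have p3 : 0 < π.ker.relIndex ((N ⊔ π.ker) ⊓ τ.ker) := Nat.pos_of_ne_zero index_ne_zero_of_finite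
  have l4 : N.relIndex π.ker ≤ 4 := by nlinarith
  rw [relIndex_sup_left] at e1
  rw [show N ⊔ τ.ker = N ⊔ π.ker ⊔ τ.ker by rw [sup_assoc, sup_eq_right.2 l01], relIndex_sup_left] at e2
  rw [inf_relIndex_right] at e3
  by_contra! big
  rw [← e1, ← e2] at big
  by_cases t1 : τ.ker = ⊤
  · rw [show (N ⊔ π.ker ⊔ τ.ker).index = 1 by simp [t1]] at big
    obtain ⟨l, k⟩ := key (by nlinarith)
    obtain ⟨i, -, hi⟩ := k 0 (A4 (by nlinarith) 0)
    obtain ⟨j, ji, hj⟩ := k i (A4 (by nlinarith) i)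
    exact (O2 l).2 j i ji hj hi
  obtain ⟨h, -, hh⟩ := SetLike.exists_of_lt (lt_top_iff_ne_top.2 t1)
  have := Nat.le_of_dvd two_pos ((index_dvd_of_le (le_sup_right (a := N ⊔ π.ker))).trans i1)
  obtain ⟨k, ⟨i, ik⟩, hk⟩ := d3 (τ h) hh (by
    rw [← map_mul]; exact mul_self_mem_of_index_two (((Nat.dvd_prime Nat.prime_two).1 i1).resolve_left (mt index_eq_one.1 t1)) h)
  have l5 : 2 < (N ⊔ π.ker).relIndex τ.ker := by nlinarith
  have : (N ⊔ π.ker).relIndex τ.ker ≤ 4 ∧ (fun i => decide (i = k)) ∈ A := by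
    by_cases q : ∀ y ∈ τ.ker, h⁻¹ * y * h * y⁻¹ ∈ π.ker
    · refine (A2 k i _ (hk i ik).1.symm ik (hk i ik).2 fun a ha => ?_).imp (fun l => by nlinarith) fun l => l (by nlinarith)
      obtain ⟨y, hy, rfl⟩ := mA.1 ha
      have := Equiv.congr_fun (MonoidHom.mem_ker.1 (q y hy)) (π y (inl i))
      simp only [map_mul, map_inv, Equiv.Perm.mul_apply, Equiv.Perm.coe_inv, Equiv.symm_apply_apply, Equiv.Perm.one_apply,
        Equiv.symm_apply_eq] at this
      simp only [hτ, ne_eq, ← m.fx, this, (π h).injective.eq_iff]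
    · push Not at q
      obtain ⟨y, hy, q⟩ := q
      have : π.ker.relIndex ((N ⊔ π.ker) ⊓ τ.ker) ≠ 1 := fun e => q (relIndex_eq_one.1 e ⟨mem_sup_left (by
        convert mul_mem (mul_mem (sq h⁻¹) (sq (h * y))) (sq y⁻¹) using 1; group),
        τ.ker.mul_mem (τ.normal_ker.conj_mem' y hy h) (inv_mem hy)⟩)
      have : 2 ≤ π.ker.relIndex ((N ⊔ π.ker) ⊓ τ.ker) := by omega
      exact ⟨by nlinarith, A4 (by nlinarith) k⟩
  obtain ⟨l, k⟩ := key (by nlinarith)
  obtain ⟨j, jk, hj⟩ := k _ this.2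
  refine (O2 l).2 j _ (hk j jk).1.symm hj fun a ha => ?_
  obtain ⟨y, hy, y2, rfl⟩ := mO.1 ha
  have := hj _ (mO.2 ⟨_, π.normal_ker.conj_mem' y hy h, by rw [← inv_inv h, inv_inv h⁻¹, _root_.conj_mul, y2]; simp, rfl⟩)
  have a1 := m.mul h⁻¹ h (inl j)
  rw [inv_mul_cancel, m.one] at a1
  rw [m.mul, m.mul0 hy, mul_right_comm, ← a1, one_mul] at this
  rw [hτ]
  revert this
  rcases π h (inl j) with i | i
  · exact id
  · have := (m.sw y (inl i)).2
    revert this
    rcases m.pm hy y2 (inl i) with a | a <;> rcases m.pm hy y2 (inr i) with b | b <;> simp [pr, a, b, n1, n1.symm]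

end H10.O7
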